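import Cfsg.Agent.H374.TC.CuTab
import Cfsg.Agent.H962.FC.Tor

/-!
# Box (X) of S2452, `F₄(q)`, `q` odd: the fixed points of `g ∈ C(Z)`, `g ∉ Q`, on `Q / Z` (helper151)

`Z = XT K`, `Q = VK K {k | k ≠ 3}` (order `q¹⁵`), `IQ` the numbers of the roots of `Q`.

* `DZ Z g` : the elements which centralise `Z` and commute with `g` modulo `Z`;
* `le_of_rep`, `le_of_tor` : leading terms (after helper374's `Cu.le_of_rep`, `Cu.le_of_tor`);
* `x_box` : `|{x ∈ Q : [x, g] ∈ Z}| ≤ q¹¹`.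
-/

set_option autoImplicit false
set_option linter.unusedSectionVars false

namespace Cfsg.Agent.H151.FR.XBox

open CoxeterSystem Cfsg.Agent.ChevalleyStructure.CoxeterGeom Cfsg.Agent.Tits.Roots Cfsg.Agent.Tits.Core
  Cfsg.Agent.Tits.RootComb Cfsg.Agent.Nodes.Comb Cfsg.Agent.Nodes.Reps Cfsg.Agent.Nodes.BNOf
  Cfsg.Agent.Nodes.StabComb Cfsg.Agent.Nodes.Bruhat Cfsg.Agent.Nodes.OppDec Cfsg.Agent.Nodes.LeviDec
  Cfsg.Agent.Nodes.NormalForm Cfsg.Agent.Nodes.Unique Cfsg.Agent.Nodes.NormX Cfsg.Agent.Nodes.Coroot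
  Cfsg.Agent.KFacts.RgdPar Cfsg.Agent.KFacts.RgdChevCoord
  Cfsg.Agent.KFacts.RgdBorelTits Cfsg.Agent.KFacts.RgdFilt
open Cfsg.Lie Cfsg.Agent.ChevalleyStructure Cfsg.Agent.ChevalleyStructure.Elts
  Cfsg.Agent.ChevalleyStructure.RootVec Cfsg.Agent.ChevalleyStructure.RootVecTab
  Cfsg.Agent.ChevalleyStructure.NPerm Cfsg.Agent.ChevalleyStructure.CoxeterGeomTypes
open Cfsg.Agent.Nodes Cfsg.Agent.Nodes.RGDChev
open Cfsg.Agent.H701.F43.Cent (hF cF nroots finW comm_theta VV MM J3)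
open Cfsg.Agent.H520.FC
open Cfsg.Agent.H374.TC.Cu
open Cfsg.Agent.SigZero.FFourTwo (LC chkLC key mem_WJ_iff rep_word eq_of_key)

universe u

/-! ### general part -/

section

variable {Y : Type*} [Group Y]

/-- the elements which centralise `Z` and commute with `g` modulo `Z` -/
def DZ (Z : Subgroup Y) (g : Y) : Subgroup Y where
  carrier := {x | (∀ z ∈ Z, x * z = z * x) ∧ x * g * x⁻¹ * g⁻¹ ∈ Z}
  one_mem' := ⟨fun z _ => by rw [one_mul, mul_one], by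
    have e : (1 : Y) * g * 1⁻¹ * g⁻¹ = 1 := by group
    rw [e]; exact one_mem _⟩
  mul_mem' := by
    rintro x y ⟨hx, hx'⟩ ⟨hy, hy'⟩
    refine ⟨fun z hz => by rw [mul_assoc, hy z hz, ← mul_assoc, hx z hz, mul_assoc], ?_⟩
    have e : x * y * g * (x * y)⁻¹ * g⁻¹ = (x * (y * g * y⁻¹ * g⁻¹) * x⁻¹) * (x * g * x⁻¹ * g⁻¹) := by group
    rw [e, hx _ hy', mul_inv_cancel_right]
    exact mul_mem hy' hx'
  inv_mem' := by
    rintro x ⟨hx, hx'⟩
    have h1 : ∀ z ∈ Z, x⁻¹ * z = z * x⁻¹ := fun z hz => by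
      have h2 := hx z hz
      calc x⁻¹ * z = x⁻¹ * (z * x) * x⁻¹ := by group
        _ = z * x⁻¹ := by rw [← h2]; group
    refine ⟨h1, ?_⟩
    have e : x⁻¹ * g * x⁻¹⁻¹ * g⁻¹ = x⁻¹ * (x * g * x⁻¹ * g⁻¹)⁻¹ * x := by group
    rw [e, h1 _ (inv_mem hx'), inv_mul_cancel_right]
    exact inv_mem hx'

theorem mem_DZ {Z : Subgroup Y} {g x : Y} : x ∈ DZ Z g ↔ (∀ z ∈ Z, x * z = z * x) ∧ x * g * x⁻¹ * g⁻¹ ∈ Z := Iff.rfl

end

variable {I W Y : Type*} [Fintype I] [DecidableEq I] [Group W] [Group Y] {M : CoxeterMatrix I}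
  {cs : CoxeterSystem M W} {A : I → I → ℤ} {h : IsCartan M A} {p : ℕ} {T : Subgroup Y} {n : I → Y}
  {X : (I → ℤ) → Subgroup Y} (R : RGD cs h p T n X)

include R in
/-- `s = b k` : the root `x` with `w x ∉ S` is not used -/
theorem le_of_rep [Finite W] {w : W} {k b s : Y} (hk : Rp cs R.nsys w k) (hs : s = b * k) {S S' : Set (I → ℤ)}
    (hS : S ⊆ RGD.Pos cs h) (hc : Closed cs h S) (hb : b ∈ Subgroup.normalizer (RGD.Sup X S : Set Y)) {x : I → ℤ}
    (hSS : ∀ y ∈ S, y = x ∨ y ∈ S') (hx : rep cs h w x ∉ S) {Z : Subgroup Y} (hZ : Z ≤ RGD.Sup X S) :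
    RGD.Sup X S ⊓ DZ Z s ≤ RGD.Sup X S' ⊓ DZ Z s := by
  rintro a ⟨ha, hac⟩
  refine ⟨?_, hac⟩
  have h2 : k * a * k⁻¹ = b⁻¹ * ((a * s * a⁻¹ * s⁻¹)⁻¹ * a) * b := by
    rw [hs]; group
  have h3 : k * a * k⁻¹ ∈ RGD.Sup X S := by
    rw [h2]
    exact conj_nrm hb (mul_mem (inv_mem (hZ hac.2)) ha)
  have h4 := mem_two R hk hS hc ha h3
  refine RGD.Sup_mono (fun y hy => ?_) h4
  rcases hSS y hy.1 with rfl | h5
  · exact absurd hy.2 hx
  · exact h5

include R in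
/-- `s = t v` : the root `x` is not used if `t` has no fixed points on `X x` -/
theorem le_of_tor [Finite W] {S S' : Set (I → ℤ)} (hS : S ⊆ RGD.Pos cs h) (hc : Closed cs h S) {x : I → ℤ}
    (hxS : x ∈ S) (hS' : S \ {x} = S') (hc' : Closed cs h S')
    (hn : RGD.B cs h T X ≤ Subgroup.normalizer (RGD.Sup X S' : Set Y)) {t v s : Y} (ht : t ∈ T)
    (hv : v ∈ RGD.Sup X (RGD.Pos cs h)) (hcm : ∀ u ∈ X x, v * u * v⁻¹ * u⁻¹ ∈ RGD.Sup X S') (hs : s = t * v)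
    (hct : ∀ u ∈ X x, t * u = u * t → u = 1) {Z : Subgroup Y} (hZ : Z ≤ RGD.Sup X S')
    (hZc : ∀ z ∈ Z, ∀ u ∈ X x, z * u = u * z) :
    RGD.Sup X S ⊓ DZ Z s ≤ RGD.Sup X S' ⊓ DZ Z s := by
  rintro a ⟨ha, hac⟩
  refine ⟨?_, hac⟩
  obtain ⟨u, hu, c, hc0, rfl⟩ := (mem_peel R hS hc hxS).1 ha
  rw [hS'] at hc0
  set N := RGD.Sup X S' with hN
  have hvB : v ∈ RGD.B cs h T X := RGD.U_le_B hv
  have hxP := hS hxS
  have huB : u ∈ RGD.B cs h T X := RGD.X_le_B hxP.1 hxP.2 hu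
  have h2 : v * u * v⁻¹ * u⁻¹ ∈ N := hcm u hu
  have h3 : v * c * v⁻¹ ∈ N := (Subgroup.mem_normalizer_iff.1 (hn hvB) _).1 hc0
  have h4 : u⁻¹ * (v * u * v⁻¹ * u⁻¹) * u ∈ N := conj_nrm (hn huB) h2
  set c2 := u⁻¹ * (v * u * v⁻¹ * u⁻¹) * u * (v * c * v⁻¹) with hc2
  have h5 : c2 ∈ N := mul_mem h4 h3
  have htB : t ∈ RGD.B cs h T X := (le_sup_left : T ≤ RGD.B cs h T X) ht
  have h6 : t * c2 * t⁻¹ ∈ N := (Subgroup.mem_normalizer_iff.1 (hn htB) _).1 h5
  have h7 : t * u * t⁻¹ ∈ X x := by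
    have h8 : cj t (X x) = X x := R.tor x hxP.1 t ht
    rw [← h8]
    exact conj_mem_cj.2 hu
  obtain ⟨z, hz, hzz⟩ : ∃ z ∈ Z, (u * c) * s * (u * c)⁻¹ * s⁻¹ = z := ⟨_, hac.2, rfl⟩
  have h8 : u * c = z * (t * u * t⁻¹ * (t * c2 * t⁻¹)) := by
    have e1 : u * c = z * (s * (u * c) * s⁻¹) := by rw [← hzz]; group
    calc u * c = z * (s * (u * c) * s⁻¹) := e1
      _ = z * (t * u * t⁻¹ * (t * c2 * t⁻¹)) := by rw [hs, hc2]; group
  have h9 : (t * u * t⁻¹)⁻¹ * u = z * (t * c2 * t⁻¹ * c⁻¹) := by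
    have e0 : z * (t * u * t⁻¹) = t * u * t⁻¹ * z := hZc z hz _ h7
    have e1 : u = t * u * t⁻¹ * z * (t * c2 * t⁻¹) * c⁻¹ := by
      rw [← e0]
      calc u = u * c * c⁻¹ := by group
        _ = z * (t * u * t⁻¹ * (t * c2 * t⁻¹)) * c⁻¹ := by rw [← h8]
        _ = _ := by group
    calc (t * u * t⁻¹)⁻¹ * u = (t * u * t⁻¹)⁻¹ * (t * u * t⁻¹ * z * (t * c2 * t⁻¹) * c⁻¹) := by rw [← e1]
      _ = _ := by group
  have h10 : (t * u * t⁻¹)⁻¹ * u = 1 := by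
    refine X_inf_N R hxP (S' := S') (fun y hy => ?_) hc' (fun hy => ?_) (mul_mem (inv_mem h7) hu) ?_
    · rw [← hS'] at hy
      exact hS hy.1
    · rw [← hS'] at hy
      exact hy.2 rfl
    · rw [h9]
      exact mul_mem (hZ hz) (mul_mem h6 (inv_mem hc0))
  have h11 : t * u * t⁻¹ = u := inv_mul_eq_one.1 h10
  have h12 : u = 1 := hct u hu (mul_inv_eq_iff_eq_mul.1 h11)
  rw [h12, one_mul]
  exact hc0

/-! ### the roots of `Q` -/

/-- the numbers of the roots of `Q` -/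
def IQ : List ℕ := [24, 26, 29, 31, 32, 36, 38, 39, 40, 42, 43, 44, 45, 46, 47]

theorem IQ_tab : ∀ r < 48, r ∈ IQ ↔ (24 ≤ r ∧ 0 < vec chevF4 4 r 3) := by decide +kernel

/-- the roots of `Q` with numbers at least `m` -/
def SQ (m : ℕ) : Set (Fin 4 → ℤ) := {x | ∃ r, m ≤ r ∧ r < 48 ∧ r ∈ IQ ∧ x = vec chevF4 4 r}

theorem mem_NotJ {x : Fin 4 → ℤ} : x ∈ NotJ cF hF.isCartan ({k | k ≠ 3} : Set (Fin 4)) ↔
    IsRoot cF hF.isCartan x ∧ 0 ≤ x ∧ 0 < x 3 := by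
  constructor
  · rintro ⟨h1, h2, k, hk, h3⟩
    have hk' : k = 3 := by
      by_contra hc
      exact hk hc
    subst hk'
    exact ⟨h1, h2, h3⟩
  · rintro ⟨h1, h2, h3⟩
    exact ⟨h1, h2, 3, fun hk => hk rfl, h3⟩

theorem SQ_eq {m : ℕ} (h24 : 24 ≤ m) : SQ m = SS m ∩ NotJ cF hF.isCartan {k | k ≠ 3} := by
  ext x
  constructor
  · rintro ⟨r, hmr, hr, hI, rfl⟩
    have h1 := (IQ_tab r hr).1 hI
    exact ⟨⟨r, hmr, hr, rfl⟩, mem_NotJ.2 ⟨root_vec hr, (SS_pos h24 ⟨r, hmr, hr, rfl⟩).2, h1.2⟩⟩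
  · rintro ⟨⟨r, hmr, hr, rfl⟩, hN⟩
    exact ⟨r, hmr, hr, (IQ_tab r hr).2 ⟨le_trans h24 hmr, (mem_NotJ.1 hN).2.2⟩, rfl⟩

theorem SQ_24 : SQ 24 = NotJ cF hF.isCartan {k | k ≠ 3} := by
  rw [SQ_eq le_rfl, SS_24]
  exact Set.inter_eq_right.2 fun x hx => ⟨hx.1, hx.2.1⟩

theorem closed_NotJ : Closed cF hF.isCartan (NotJ cF hF.isCartan ({k | k ≠ 3} : Set (Fin 4))) := by
  rintro x hx y hy z ⟨hz, c, a, b, hc, ha, hb, e⟩
  rw [mem_NotJ] at hx hy ⊢
  have h6 : ∀ k, c * z k = a * x k + b * y k := by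
    intro k
    have := congrFun e k
    simpa [Pi.add_apply, Pi.smul_apply, smul_eq_mul] using this
  refine ⟨hz, fun k => ?_, ?_⟩
  · have h1 := h6 k
    have h2 := hx.2.1 k
    have h3 := hy.2.1 k
    simp only [Pi.zero_apply] at h2 h3 ⊢
    by_contra h4
    push Not at h4
    have h5 : c * z k < 0 := mul_neg_of_pos_of_neg hc h4
    have h7 : 0 ≤ a * x k := mul_nonneg ha.le h2
    have h8 : 0 ≤ b * y k := mul_nonneg hb.le h3
    omega
  · have h1 := h6 3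
    by_contra h4
    push Not at h4
    have h5 : c * z 3 ≤ 0 := mul_nonpos_of_nonneg_of_nonpos hc.le h4
    have h7 : 0 < a * x 3 := mul_pos ha hx.2.2
    have h8 : 0 < b * y 3 := mul_pos hb hy.2.2
    omega

theorem closed_SQ {m : ℕ} (h24 : 24 ≤ m) : Closed cF hF.isCartan (SQ m) := by
  rw [SQ_eq h24]
  exact (closed_SS h24).inter closed_NotJ

theorem SQ_pos {m : ℕ} (h24 : 24 ≤ m) : SQ m ⊆ RGD.Pos cF hF.isCartan := by
  rw [SQ_eq h24]
  exact fun x hx => SS_pos h24 hx.1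

theorem SQ_48 : SQ 48 = ∅ := by
  rw [Set.eq_empty_iff_forall_notMem]
  rintro x ⟨r, h1, h2, -⟩
  omega

theorem SQ_skip {m : ℕ} (hm : m ∉ IQ) : SQ m = SQ (m + 1) := by
  ext x
  constructor
  · rintro ⟨r, hmr, hr, hI, rfl⟩
    refine ⟨r, ?_, hr, hI, rfl⟩
    rcases Nat.lt_or_eq_of_le hmr with h | h
    · exact h
    · subst h
      exact absurd hI hm
  · rintro ⟨r, hmr, hr, hI, rfl⟩
    exact ⟨r, by omega, hr, hI, rfl⟩

theorem SQ_diff {m : ℕ} (hm : m < 48) : SQ m \ {vec chevF4 4 m} = SQ (m + 1) := by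
  ext x
  constructor
  · rintro ⟨⟨r, hmr, hr, hI, rfl⟩, hne⟩
    refine ⟨r, ?_, hr, hI, rfl⟩
    rcases Nat.lt_or_eq_of_le hmr with h | h
    · exact h
    · subst h
      exact absurd rfl hne
  · rintro ⟨r, hmr, hr, hI, rfl⟩
    refine ⟨⟨r, by omega, hr, hI, rfl⟩, fun e => ?_⟩
    have := vec_inj' hr hm (Set.mem_singleton_iff.1 e)
    omega

theorem SQ_mem {m : ℕ} (hm : m < 48) : ∀ y ∈ SQ m, y = vec chevF4 4 m ∨ y ∈ SQ (m + 1) := by
  intro y hy
  by_cases h : y = vec chevF4 4 m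
  · exact Or.inl h
  · right
    rw [← SQ_diff hm]
    exact ⟨hy, h⟩

/-- the list of the roots of `Q` with numbers at least `m` -/
def lq (m k : ℕ) : List ℕ := (List.range' m k).filter fun r => decide (r ∈ IQ)

theorem nodup_lq (m k : ℕ) : (lq m k).Nodup := List.Nodup.filter _ List.nodup_range'

/-! ### the chain -/

section

variable (K : Type u) [Field K] [Finite K]

theorem sup_SQ {m : ℕ} (h24 : 24 ≤ m) : RGD.Sup (XX chevF4 4 K) (SQ m) =
    RGD.Sup (XX chevF4 4 K) (SS m) ⊓ VK K {k | k ≠ 3} := by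
  obtain ⟨p, hp⟩ := CharP.exists K
  have : Fact p.Prime := ⟨CharP.char_is_prime K p⟩
  rw [SQ_eq h24]
  exact (inf_eq (rgd (K := K) hF cF p) (SS_pos h24) (fun x hx => ⟨hx.1, hx.2.1⟩) (closed_SS h24) closed_NotJ).symm

theorem B_le_PK : BK K ≤ PK K {k | k ≠ 3} := by
  obtain ⟨p, hp⟩ := CharP.exists K
  have : Fact p.Prime := ⟨CharP.char_is_prime K p⟩
  exact B_le_PJ

theorem PK_nrm_VK : PK K {k | k ≠ 3} ≤ Subgroup.normalizer (VK K {k | k ≠ 3} : Set ↥(chevF4.group K)) := by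
  obtain ⟨p, hp⟩ := CharP.exists K
  have : Fact p.Prime := ⟨CharP.char_is_prime K p⟩
  exact PJ_le_normalizer_VJ (rgd (K := K) hF cF p) _

theorem B_nrm_SQ {m : ℕ} (h24 : 24 ≤ m) (hm : m ≤ 48) :
    BK K ≤ Subgroup.normalizer (RGD.Sup (XX chevF4 4 K) (SQ m) : Set ↥(chevF4.group K)) := by
  intro b hb
  rw [Subgroup.mem_normalizer_iff]
  intro a
  have h1 := Subgroup.mem_normalizer_iff.1 (B_nrm_SS K h24 hm hb) a
  have h2 := Subgroup.mem_normalizer_iff.1 (PK_nrm_VK K (B_le_PK K hb)) a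
  rw [sup_SQ K h24]
  exact ⟨fun h => ⟨h1.1 h.1, h2.1 h.2⟩, fun h => ⟨h1.2 h.1, h2.2 h.2⟩⟩

theorem card_SQ {m : ℕ} (h24 : 24 ≤ m) (hm : m ≤ 48) :
    Nat.card ↥(RGD.Sup (XX chevF4 4 K) (SQ m)) = Nat.card K ^ (lq m (48 - m)).length := by
  classical
  obtain ⟨p, hp⟩ := CharP.exists K
  have : Fact p.Prime := ⟨CharP.char_is_prime K p⟩
  have e : (((lq m (48 - m)).toFinset.image (vec chevF4 4) : Finset (Fin 4 → ℤ)) : Set (Fin 4 → ℤ)) =
      SQ m := by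
    ext x
    rw [Finset.coe_image, Set.mem_image]
    constructor
    · rintro ⟨r, hr, rfl⟩
      rw [Finset.mem_coe, List.mem_toFinset, lq, List.mem_filter, List.mem_range'_1, decide_eq_true_eq] at hr
      exact ⟨r, hr.1.1, by omega, hr.2, rfl⟩
    · rintro ⟨r, hmr, hr, hI, rfl⟩
      refine ⟨r, ?_, rfl⟩
      rw [Finset.mem_coe, List.mem_toFinset, lq, List.mem_filter, List.mem_range'_1, decide_eq_true_eq]
      exact ⟨by omega, hI⟩
  have h1 := Cfsg.Agent.Nodes.CardSup.card_sup (rgd (K := K) hF cF p)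
    (s := (lq m (48 - m)).toFinset.image (vec chevF4 4)) (by rw [e]; exact SQ_pos h24)
    (by rw [e]; exact closed_SQ h24)
  rw [e] at h1
  rw [h1, Finset.prod_congr rfl (g := fun _ => Nat.card K) ?_, Finset.prod_const, Finset.card_image_of_injOn,
    List.toFinset_card_of_nodup (nodup_lq m (48 - m))]
  · intro r hr s hs e
    rw [Finset.mem_coe, List.mem_toFinset, lq, List.mem_filter, List.mem_range'_1] at hr hs
    exact vec_inj' (by omega) (by omega) e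
  · intro x hx
    rw [Finset.mem_image] at hx
    obtain ⟨r, hr, rfl⟩ := hx
    rw [List.mem_toFinset, lq, List.mem_filter, List.mem_range'_1] at hr
    exact Cfsg.Agent.H744.FC.card_X K (root_vec (by omega))

theorem SQ_succ_le (m : ℕ) : RGD.Sup (XX chevF4 4 K) (SQ (m + 1)) ≤ RGD.Sup (XX chevF4 4 K) (SQ m) := by
  refine RGD.Sup_mono ?_
  rintro x ⟨r, hmr, hr, hI, rfl⟩
  exact ⟨r, by omega, hr, hI, rfl⟩

theorem relIndex_SQ {m : ℕ} (h24 : 24 ≤ m) (hm : m < 48) (hI : m ∈ IQ) :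
    (RGD.Sup (XX chevF4 4 K) (SQ (m + 1))).relIndex (RGD.Sup (XX chevF4 4 K) (SQ m)) = Nat.card K := by
  have h1 := Subgroup.relIndex_mul_relIndex ⊥ _ _ bot_le (SQ_succ_le K m)
  rw [Subgroup.relIndex_bot_left, Subgroup.relIndex_bot_left, card_SQ K h24 hm.le, card_SQ K (by omega) (by omega)]
    at h1
  have h2 : (lq m (48 - m)).length = (lq (m + 1) (48 - (m + 1))).length + 1 := by
    have e1 : 48 - m = (48 - (m + 1)) + 1 := by omega
    unfold lq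
    rw [e1, List.range'_succ, List.filter_cons_of_pos (by simpa using hI), List.length_cons]
  rw [h2, pow_succ] at h1
  have h3 : 0 < Nat.card K := Nat.card_pos
  exact Nat.eq_of_mul_eq_mul_left (pow_pos h3 _) h1

variable {K}

theorem chain (C : Subgroup ↥(chevF4.group K)) (P : ℕ → Prop) [DecidablePred P]
    (hP : ∀ m, m ∈ IQ → ¬ P m → RGD.Sup (XX chevF4 4 K) (SQ m) ⊓ C ≤ RGD.Sup (XX chevF4 4 K) (SQ (m + 1)) ⊓ C) :
    Nat.card ↥(VK K {k | k ≠ 3} ⊓ C) ≤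
      Nat.card K ^ ((List.range' 24 24).filter fun r => decide (r ∈ IQ ∧ P r)).length := by
  have key : ∀ k ≤ 24, Nat.card ↥(RGD.Sup (XX chevF4 4 K) (SQ (48 - k)) ⊓ C) ≤
      Nat.card K ^ ((List.range' (48 - k) k).filter fun r => decide (r ∈ IQ ∧ P r)).length := by
    intro k
    induction k with
    | zero =>
      intro _
      have h1 : RGD.Sup (XX chevF4 4 K) (SQ (48 - 0)) = ⊥ := by
        rw [Nat.sub_zero, SQ_48, Sup_empty]
      rw [h1, bot_inf_eq, Subgroup.card_bot]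
      exact Nat.one_le_pow _ _ Nat.card_pos
    | succ k ih =>
      intro hk
      have ih' := ih (by omega)
      set m := 48 - (k + 1) with hm
      have e1 : 48 - k = m + 1 := by omega
      rw [e1] at ih'
      have e2 : List.range' m (k + 1) = m :: List.range' (m + 1) k := List.range'_succ
      rw [e2]
      by_cases hI : m ∈ IQ
      · by_cases hPm : P m
        · rw [List.filter_cons_of_pos (by simpa using ⟨hI, hPm⟩), List.length_cons, pow_succ, mul_comm]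
          refine (card_step C (SQ_succ_le K m)).trans ?_
          rw [relIndex_SQ K (by omega) (by omega) hI]
          exact Nat.mul_le_mul_left _ ih'
        · rw [List.filter_cons_of_neg (by simpa using fun _ => hPm)]
          exact (Nat.card_mono (Set.toFinite _) (hP m hI hPm)).trans ih'
      · rw [List.filter_cons_of_neg (by simpa using fun h => absurd h hI), SQ_skip hI]
        exact ih'
  have h1 := key 24 le_rfl
  rw [show 48 - 24 = 24 from rfl, SQ_24] at h1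
  exact h1

/-- the number of the roots of `Q` which do not decrease -/
def cnq (ω : List (Fin 4)) : ℕ :=
  ((List.range' 24 24).filter fun r => decide (r ∈ IQ ∧ r ≤ Cfsg.Agent.SigZero.FFourTwo.act ω r)).length

theorem cnq_le : ∀ ω ∈ LC, key ω = key [] ∨ cnq ω ≤ 11 := by decide +kernel

theorem IQ_lt : ∀ m ∈ IQ, 24 ≤ m ∧ m < 48 := by decide +kernel

theorem XT_le_SQ {m : ℕ} (hm : m ≤ 47) : XT K ≤ RGD.Sup (XX chevF4 4 K) (SQ m) :=
  RGD.le_Sup (S := SQ m) ⟨47, hm, by norm_num, by decide, rfl⟩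

/-- `s = b k` -/
theorem case_rep {p : ℕ} [Fact p.Prime] [CharP K p] {ω : List (Fin 4)} (hω : cnq ω ≤ 11)
    {b k : ↥(chevF4.group K)} (hb : b ∈ BK K)
    (hk : Rp cF (rgd (K := K) hF cF p).nsys (cF.wordProd ω) k) :
    Nat.card ↥(VK K {k | k ≠ 3} ⊓ DZ (XT K) (b * k)) ≤ Nat.card K ^ 11 := by
  refine (chain (DZ (XT K) (b * k)) (fun r => r ≤ Cfsg.Agent.SigZero.FFourTwo.act ω r) ?_).trans
    (Nat.pow_le_pow_right Nat.card_pos hω)
  intro m hI hP
  obtain ⟨h24, hm⟩ := IQ_lt m hI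
  refine le_of_rep (rgd (K := K) hF cF p) hk rfl (SQ_pos h24) (closed_SQ h24) (B_nrm_SQ K h24 hm.le hb)
    (SQ_mem hm) ?_ (XT_le_SQ (by omega))
  rintro ⟨r, hmr, hr, -, e⟩
  have h1 := rep_word cF ω hm
  have h2 : vec chevF4 4 (Cfsg.Agent.SigZero.FFourTwo.act ω m) = vec chevF4 4 r := by
    rw [← h1.1]
    exact e
  have h3 := vec_inj' h1.2 hr h2
  apply hP
  rw [h3]
  exact hmr

/-! ### the torus -/

/-- four disjoint pairs `(b, b + αᵢ)` in `Q` -/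
def prq : Fin 3 → List (ℕ × ℕ) := ![
  [(29, 36), (31, 38), (32, 39), (40, 44)],
  [(26, 29), (36, 38), (39, 40), (43, 44)],
  [(24, 26), (31, 32), (38, 39), (42, 43)]]

theorem prq_tab : ∀ i : Fin 3, ∀ b ∈ prq i, b.1 < chevF4.nroots ∧ b.2 < chevF4.nroots ∧ b.1 ≠ 47 ∧ b.2 ≠ 47 ∧
    ∀ j : Fin 4, vec chevF4 4 b.2 j = vec chevF4 4 b.1 j + (if j = i.castSucc then 1 else 0) := by decide +kernel

theorem cnt_le (f : ℕ → Bool) (i : Fin 3) (h0 : ∀ r ∉ IQ, f r = false)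
    (h1 : ∀ b ∈ prq i, ¬ (f b.1 = true ∧ f b.2 = true)) : ((List.range' 24 24).filter f).length ≤ 11 := by
  have hle : ∀ n, (f n).toNat ≤ 1 := fun n => Bool.toNat_le _
  have h2 : ∀ b ∈ prq i, (f b.1).toNat + (f b.2).toNat ≤ 1 := by
    intro b hb
    have := h1 b hb
    revert this
    cases f b.1 <;> cases f b.2 <;> simp
  rw [Cfsg.Agent.H962.FC.cnt]
  have z : ∀ r ∉ IQ, (f r).toNat = 0 := fun r hr => by rw [h0 r hr]; rfl
  have z1 := z 25 (by decide)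
  have z2 := z 27 (by decide)
  have z3 := z 28 (by decide)
  have z4 := z 30 (by decide)
  have z5 := z 33 (by decide)
  have z6 := z 34 (by decide)
  have z7 := z 35 (by decide)
  have z8 := z 37 (by decide)
  have z9 := z 41 (by decide)
  have a1 := hle 24
  have a3 := hle 26
  have a6 := hle 29
  have a8 := hle 31
  have a9 := hle 32
  have a13 := hle 36
  have a15 := hle 38
  have a16 := hle 39
  have a17 := hle 40
  have a19 := hle 42
  have a20 := hle 43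
  have a21 := hle 44
  have a22 := hle 45
  have a23 := hle 46
  have a24 := hle 47
  fin_cases i
  all_goals
    simp only [prq, Fin.zero_eta, Fin.mk_one, Fin.reduceFinMk, Matrix.cons_val, List.mem_cons, List.not_mem_nil,
      or_false, forall_eq_or_imp, forall_eq] at h2
    obtain ⟨b1, b2, b3, b4⟩ := h2
    omega

theorem cnt_one (f : ℕ → Bool) (h0 : ∀ r, r ≠ 47 → f r = false) : ((List.range' 24 24).filter f).length ≤ 11 := by
  rw [Cfsg.Agent.H962.FC.cnt]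
  have z : ∀ r, r ≠ 47 → (f r).toNat = 0 := fun r hr => by rw [h0 r hr]; rfl
  have a24 : (f 47).toNat ≤ 1 := Bool.toNat_le _
  rw [z 24 (by decide), z 25 (by decide), z 26 (by decide), z 27 (by decide), z 28 (by decide), z 29 (by decide),
    z 30 (by decide), z 31 (by decide), z 32 (by decide), z 33 (by decide), z 34 (by decide), z 35 (by decide),
    z 36 (by decide), z 37 (by decide), z 38 (by decide), z 39 (by decide), z 40 (by decide), z 41 (by decide),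
    z 42 (by decide), z 43 (by decide), z 44 (by decide), z 45 (by decide), z 46 (by decide)]
  omega

theorem lev_one : ∀ r ∈ IQ, r ≠ 47 → vec chevF4 4 r 3 = 1 := by decide +kernel

open Classical in
/-- **`t ≠ 1` centralises at most 10 of the 14 root groups of level one.** -/
theorem tor11 {t : ↥(chevF4.group K)} (ht : t ∈ TT chevF4 K) (h1 : t ≠ 1) :
    ((List.range' 24 24).filter fun r => decide (r ∈ IQ ∧ (r = 47 ∨
      ∀ v ∈ XX chevF4 4 K (vec chevF4 4 r), t * v = v * t))).length ≤ 11 := by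
  obtain ⟨p, hp⟩ := CharP.exists K
  have : Fact p.Prime := ⟨CharP.char_is_prime K p⟩
  by_cases hex : ∃ i : Fin 3, ch hF (sr i.castSucc) t ≠ 1
  · obtain ⟨i, hi⟩ := hex
    refine cnt_le _ i ?_ ?_
    · intro r hr
      rw [decide_eq_false_iff_not]
      exact fun h => hr h.1
    · intro b hb hc
      rw [decide_eq_true_eq, decide_eq_true_eq] at hc
      obtain ⟨hb1, hb2, hn1, hn2, hb3⟩ := prq_tab i b hb
      have h2 := Cfsg.Agent.H962.FC.ch_of_comm ht hb1 (hc.1.2.resolve_left hn1)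
      have h3 := Cfsg.Agent.H962.FC.ch_of_comm ht hb2 (hc.2.2.resolve_left hn2)
      have h4 : vec chevF4 4 b.2 = vec chevF4 4 b.1 + sr i.castSucc := by
        funext j
        rw [hb3 j, Pi.add_apply]
        by_cases hj : j = i.castSucc
        · subst hj
          rw [if_pos rfl, sr_self]
        · rw [if_neg hj, sr_ne hj]
      rw [Cfsg.Agent.H962.FC.ch_vadd ht hb1 hb2 h4, h2, one_mul] at h3
      exact hi h3
  · push Not at hex
    have e0 : ch hF (sr (0 : Fin 4)) t = 1 := hex 0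
    have e1 : ch hF (sr (1 : Fin 4)) t = 1 := hex 1
    have e2 : ch hF (sr (2 : Fin 4)) t = 1 := hex 2
    have e3 : ch hF (sr (3 : Fin 4)) t ≠ 1 := by
      intro hc
      refine h1 (PRankPar.Chev.faithful hF cF p t ht fun i => ?_)
      fin_cases i
      · exact e0
      · exact e1
      · exact e2
      · exact hc
    refine cnt_one _ fun r hr => ?_
    rw [decide_eq_false_iff_not]
    rintro ⟨hI, h | h⟩
    · exact hr h
    · have hr48 : r < chevF4.nroots := by rw [nroots]; exact (IQ_lt r hI).2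
      have h2 := Cfsg.Agent.H962.FC.ch_of_comm ht hr48 h
      rw [PRankPar.Chev.ch_prod hF cF p _ (isRoot_vec hF cF hr48) t ht, Fin.prod_univ_four, e0, e1, e2,
        lev_one r hI hr, one_zpow, one_zpow, one_zpow, one_mul, one_mul, one_mul, zpow_one] at h2
      exact e3 h2

/-- `s = t v` -/
theorem case_tor {t v : ↥(chevF4.group K)} (ht : t ∈ TT chevF4 K) (h1 : t ≠ 1) (hv : v ∈ UK K) :
    Nat.card ↥(VK K {k | k ≠ 3} ⊓ DZ (XT K) (t * v)) ≤ Nat.card K ^ 11 := by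
  classical
  obtain ⟨p, hp⟩ := CharP.exists K
  have : Fact p.Prime := ⟨CharP.char_is_prime K p⟩
  have R := rgd (K := K) hF cF p
  refine (chain (DZ (XT K) (t * v)) (fun r => r = 47 ∨ ∀ v ∈ XX chevF4 4 K (vec chevF4 4 r), t * v = v * t)
    ?_).trans (Nat.pow_le_pow_right Nat.card_pos (tor11 ht h1))
  intro m hI hP
  obtain ⟨h24, hm⟩ := IQ_lt m hI
  push Not at hP
  obtain ⟨hm47, u0, hu0, hne⟩ := hP
  have C := (coords (K := K) hF cF p).coord _ (root_vec hm)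
  have hvB : v ∈ BK K := RGD.U_le_B hv
  have hxS : vec chevF4 4 m ∈ SQ m := ⟨m, le_rfl, hm, hI, rfl⟩
  have hab : ∀ u ∈ XX chevF4 4 K (vec chevF4 4 m), ∀ v ∈ XX chevF4 4 K (vec chevF4 4 m), u * v = v * u := by
    intro u hu v hv
    obtain ⟨a, rfl⟩ := (C.mem u).1 hu
    obtain ⟨b, rfl⟩ := (C.mem v).1 hv
    rw [← C.add, ← C.add, add_comm]
  have hUV : ∀ {x}, x ∈ RGD.Sup (XX chevF4 4 K) (SQ m) → x ∈ VK K {k | k ≠ 3} := by
    intro x hx
    rw [sup_SQ K h24] at hx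
    exact hx.2
  refine le_of_tor R (SQ_pos h24) (closed_SQ h24) hxS (SQ_diff hm) (closed_SQ (by omega))
    (B_nrm_SQ K (by omega) (by omega)) ht hv ?_ rfl ?_ (XT_le_SQ (by omega)) ?_
  · intro u hu
    have e := Sf_eq h24 hm
    have e' : Sf cF hF.isCartan (fm m) \ {vec chevF4 4 m} = SS (m + 1) := by rw [e, SS_diff hm]
    have h2 : v * u * v⁻¹ * u⁻¹ ∈ RGD.Sup (XX chevF4 4 K) (Sf cF hF.isCartan (fm m) \ {vec chevF4 4 m}) :=
      comm_N R (filtF K p) (ev_nonneg h24 hm) (SS_pos h24 ⟨m, le_rfl, hm, rfl⟩)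
        (by rw [e]; exact ⟨m, le_rfl, hm, rfl⟩) hab (by rw [e']; exact B_nrm_SS K (by omega) (by omega)) hu hv
    rw [e'] at h2
    rw [sup_SQ K (by omega)]
    refine ⟨h2, ?_⟩
    have hu' : u ∈ VK K {k | k ≠ 3} := hUV (RGD.le_Sup hxS hu)
    exact Subgroup.mul_mem _ ((Subgroup.mem_normalizer_iff.1 (PK_nrm_VK K (B_le_PK K hvB)) u).1 hu')
      (Subgroup.inv_mem _ hu')
  · intro u hu htu
    obtain ⟨a, rfl⟩ := (C.mem u).1 hu
    by_contra hne'
    have ha : a ≠ 0 := by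
      rintro rfl
      exact hne' C.zero
    apply hne
    have hact := C.act t ht
    have h3 := hact a
    rw [htu, mul_inv_cancel_right] at h3
    have h4 := C.inj h3
    have h5 : ch hF (vec chevF4 4 m) t = 1 := by
      have h6 : ch hF (vec chevF4 4 m) t * a = 1 * a := by rw [one_mul]; exact h4.symm
      exact mul_right_cancel₀ ha h6
    obtain ⟨b, rfl⟩ := (C.mem u0).1 hu0
    have h6 := hact b
    rw [h5, one_mul] at h6
    exact mul_inv_eq_iff_eq_mul.1 h6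
  · intro z hz u hu
    have hu' : u ∈ VK K {k | k ≠ 3} := hUV (RGD.le_Sup hxS hu)
    have h2 : u ∈ VV K ⊔ MM K := (le_sup_left : VV K ≤ VV K ⊔ MM K) hu'
    exact (comm_theta h2 hz).symm

/-! ### unipotent elements -/

include R in
/-- `U ∩ k⁻¹ B k` -/
theorem mem_PW_B [Finite W] {w : W} {k : Y} (hk : Rp cs R.nsys w k) {r : Y} (hr : r ∈ RGD.Sup X (RGD.Pos cs h))
    (hkr : k * r * k⁻¹ ∈ RGD.B cs h T X) : r ∈ RGD.Sup X (PW cs h w) := by
  obtain ⟨b, hb, c, hc, rfl⟩ := exists_PW_NW R w hr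
  have hb' : k * b * k⁻¹ ∈ RGD.Sup X (RGD.Pos cs h) :=
    conj_mem_Sup R hk (S' := RGD.Pos cs h) (fun x hx => hx.1) (fun x hx => ⟨hx.1.act _, hx.2.2⟩) hb
  have hc' : k * c * k⁻¹ ∈ RGD.B cs h T X := by
    have e : k * c * k⁻¹ = (k * b * k⁻¹)⁻¹ * (k * (b * c) * k⁻¹) := by group
    rw [e]
    exact mul_mem (inv_mem (RGD.U_le_B hb')) hkr
  have hc'' : k * c * k⁻¹ ∈ UN cs h X :=
    conj_mem_Sup R hk (S' := Neg cs h) (fun x hx => hx.1) (fun x hx => ⟨hx.1.act _, hx.2.2⟩) hc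
  have h1 := eq_one_of_mem_UN_of_mem_B R hc'' hc'
  have h2 : c = 1 := by
    have e : c = k⁻¹ * (k * c * k⁻¹) * k := by group
    rw [e, h1]; group
  rw [h2, mul_one]
  exact hb

/-- a word for the longest element of `W(C₃)` -/
def w0q : List (Fin 4) := [2, 1, 2, 0, 1, 2, 0, 1, 0]

theorem w0q_mem : w0q ∈ LC := by decide +kernel

theorem w0q_tab : ∀ r < 48, 24 ≤ r → 24 ≤ Cfsg.Agent.SigZero.FFourTwo.act w0q r → r ∈ IQ := by decide +kernel

theorem J3_eq : ({k | k ≠ 3} : Set (Fin 4)) = {i | i ∈ ([0, 1, 2] : List (Fin 4))} := by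
  ext i
  fin_cases i <;> simp

theorem PW_w0q : PW cF hF.isCartan (cF.wordProd w0q) ⊆ NotJ cF hF.isCartan {k | k ≠ 3} := by
  rintro x ⟨hx, h0, h1⟩
  obtain ⟨r, hr, rfl⟩ := root_cases hx
  have h2 := (Cfsg.Agent.SigZero.FFourTwo.nonneg_iff hr).1 h0
  have h3 := rep_word cF w0q hr
  have h4 : 0 ≤ vec chevF4 4 (Cfsg.Agent.SigZero.FFourTwo.act w0q r) := by
    rw [← h3.1]
    exact h1
  have h5 := (Cfsg.Agent.SigZero.FFourTwo.nonneg_iff h3.2).1 h4
  have h6 := w0q_tab r hr h2 h5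
  rw [← SQ_24]
  exact ⟨r, h2, hr, h6, rfl⟩

/-- an element of `U` with all `P`-conjugates in `B` lies in `Q` -/
theorem mem_VK_of_all {v : ↥(chevF4.group K)} (hv : v ∈ UK K)
    (hall : ∀ x ∈ PK K {k | k ≠ 3}, x * v * x⁻¹ ∈ BK K) : v ∈ VK K {k | k ≠ 3} := by
  obtain ⟨p, hp⟩ := CharP.exists K
  have : Fact p.Prime := ⟨CharP.char_is_prime K p⟩
  have R := rgd (K := K) hF cF p
  obtain ⟨k, hk⟩ := exists_rp cF R.nsys (cF.wordProd w0q)
  have hkP : k ∈ PK K {k | k ≠ 3} := by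
    refine (mem_PJ_iff_cell R).2 ⟨cF.wordProd w0q, ?_, 1, one_mem _, k, hk, 1, one_mem _, by group⟩
    rw [J3_eq]
    exact (mem_WJ_iff cF chkLC _).2 ⟨w0q, w0q_mem, rfl⟩
  exact RGD.Sup_mono PW_w0q (mem_PW_B R hk hv (hall k hkP))

/-! ### the theorem -/

theorem card_conj {g y : ↥(chevF4.group K)} (hy : y ∈ PK K {k | k ≠ 3}) :
    Nat.card ↥(VK K {k | k ≠ 3} ⊓ DZ (XT K) g) ≤ Nat.card ↥(VK K {k | k ≠ 3} ⊓ DZ (XT K) (y * g * y⁻¹)) := by
  have hn := Subgroup.mem_normalizer_iff.1 (PK_nrm_VK K hy)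
  refine Nat.card_le_card_of_injective (fun a => ⟨y * a.1 * y⁻¹, (hn _).1 a.2.1, ?_, ?_⟩) ?_
  · intro z hz
    have h1 := Cfsg.Agent.H744.FC.conj_XT (inv_mem hy) hz
    rw [inv_inv] at h1
    have h2 := a.2.2.1 _ h1
    calc y * a.1 * y⁻¹ * z = y * (a.1 * (y⁻¹ * z * y)) * y⁻¹ := by group
      _ = z * (y * a.1 * y⁻¹) := by rw [h2]; group
  · have h1 := Cfsg.Agent.H744.FC.conj_XT hy a.2.2.2
    have e : y * a.1 * y⁻¹ * (y * g * y⁻¹) * (y * a.1 * y⁻¹)⁻¹ * (y * g * y⁻¹)⁻¹ =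
        y * (a.1 * g * (a.1)⁻¹ * g⁻¹) * y⁻¹ := by group
    rw [e]
    exact h1
  · intro a a' h5
    have h6 : y * a.1 * y⁻¹ = y * a'.1 * y⁻¹ := congrArg Subtype.val h5
    exact Subtype.ext (mul_left_cancel (mul_right_cancel h6))

/-- **Box (X)**, for all `g ∈ P` -/
theorem card_fix {g : ↥(chevF4.group K)} (hg : g ∈ PK K {k | k ≠ 3}) (hgQ : g ∉ VK K {k | k ≠ 3}) :
    Nat.card ↥(VK K {k | k ≠ 3} ⊓ DZ (XT K) g) ≤ Nat.card K ^ 11 := by
  obtain ⟨p, hp⟩ := CharP.exists K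
  have : Fact p.Prime := ⟨CharP.char_is_prime K p⟩
  have R := rgd (K := K) hF cF p
  by_cases hall : ∀ x ∈ PK K {k | k ≠ 3}, x * g * x⁻¹ ∈ BK K
  · have hgB : g ∈ BK K := by
      have := hall 1 (one_mem _)
      rwa [one_mul, inv_one, mul_one] at this
    obtain ⟨t, ht, v, hv, e⟩ := R.mem_B.1 hgB
    by_cases ht1 : t = 1
    · rw [ht1, one_mul] at e
      rw [← e] at hv
      exact absurd (mem_VK_of_all hv hall) hgQ
    · rw [e]
      exact case_tor ht ht1 hv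
  · push Not at hall
    obtain ⟨x, hx, hxB⟩ := hall
    refine (card_conj hx).trans ?_
    have hxP : x * g * x⁻¹ ∈ PK K {k | k ≠ 3} := mul_mem (mul_mem hx hg) (inv_mem hx)
    obtain ⟨w, hw, b1, hb1, k, hk, b2, hb2, e⟩ := (mem_PJ_iff_cell R).1 hxP
    rw [J3_eq] at hw
    obtain ⟨ω, hω, rfl⟩ := (mem_WJ_iff cF chkLC w).1 hw
    rcases cnq_le ω hω with h2 | h2
    · have h3 : cF.wordProd ω = 1 := by
        rw [eq_of_key cF h2, wordProd_nil]
      rw [h3] at hk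
      have hkT : k ∈ TT chevF4 K := hk.mem_of_one
      refine absurd ?_ hxB
      rw [e]
      exact mul_mem (mul_mem hb1 ((le_sup_left : TT chevF4 K ≤ BK K) hkT)) hb2
    · have h3 := case_rep (p := p) h2 (mul_mem hb2 hb1) hk
      have h4 := card_conj (g := x * g * x⁻¹) (B_le_PK K hb2)
      have e2 : b2 * (x * g * x⁻¹) * b2⁻¹ = b2 * b1 * k := by rw [e]; group
      rw [e2] at h4
      exact h4.trans h3

/-- **Box (X)** : `|{x ∈ Q : [x, g] ∈ Z}| ≤ q¹¹` -/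
theorem x_box11 {g : ↥(chevF4.group K)} (hg : g ∈ PK K {k | k ≠ 3}) (hgQ : g ∉ VK K {k | k ≠ 3}) :
    Nat.card {x : ↥(VK K {k | k ≠ 3}) // (x : ↥(chevF4.group K)) * g * (x : ↥(chevF4.group K))⁻¹ * g⁻¹ ∈ XT K} ≤
      Nat.card K ^ 11 := by
  refine le_trans ?_ (card_fix hg hgQ)
  refine Nat.card_le_card_of_injective (fun a => ⟨a.1.1, a.1.2, fun z hz => ?_, a.2⟩) ?_
  · have h2 : (a.1 : ↥(chevF4.group K)) ∈ VV K ⊔ MM K := (le_sup_left : VV K ≤ VV K ⊔ MM K) a.1.2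
    exact comm_theta h2 hz
  · rintro ⟨⟨a, ha⟩, ha'⟩ ⟨⟨b, hb⟩, hb'⟩ hab
    have h1 : a = b := congrArg Subtype.val hab
    subst h1
    rfl

/-- **Box (X)** for `g ∈ C(Z)` -/
theorem x_box {g : ↥(chevF4.group K)} (hg : g ∈ Subgroup.centralizer (XT K : Set ↥(chevF4.group K)))
    (hgQ : g ∉ VK K {k | k ≠ 3}) :
    Nat.card {x : ↥(VK K {k | k ≠ 3}) // (x : ↥(chevF4.group K)) * g * (x : ↥(chevF4.group K))⁻¹ * g⁻¹ ∈ XT K} ≤
      Nat.card K ^ 12 := by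
  obtain ⟨p, hp⟩ := CharP.exists K
  have : Fact p.Prime := ⟨CharP.char_is_prime K p⟩
  have h1 : g ∈ PK K {k | k ≠ 3} := by
    have hu : xc hF (vec chevF4 4 47) (1 : K) ∈ XT K := Cfsg.Agent.H744.FC.mem_XT.2 ⟨1, rfl⟩
    have hu1 : xc hF (vec chevF4 4 47) (1 : K) ≠ 1 := by
      rw [← Cfsg.Agent.H744.FC.xc_zero (K := K)]
      exact fun h => one_ne_zero (xc_inj hF Cfsg.Agent.H744.FC.lt47 h)
    refine Cfsg.Agent.H744.FC.cent_le_PK hu hu1 (Subgroup.mem_centralizer_singleton_iff.2 ?_)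
    exact (Subgroup.mem_centralizer_iff.1 hg _ hu).symm
  exact (x_box11 h1 hgQ).trans (Nat.pow_le_pow_right Nat.card_pos (by norm_num))

end

end Cfsg.Agent.H151.FR.XBox
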